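import Mathlib
import Cfsg.Agent.Lib.BlockCoverN.Tau

/-!
# Covering and induction

For a block `c` of `N_G(Q)` inducing `B`, and a constituent `ξ` of the restriction to `N_N(Q)` of a member of
`c`, the block induced to `N` by the block of `ξ` is covered by `B` (`subset_covB`).  Consequently
`covers_of_covers` and, using the First Main Theorem in `N`, `covers_of_induced`.
-/

set_option linter.unusedSectionVars false
set_option autoImplicit false
set_option linter.style.haveILetI false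

namespace Cfsg.Agent.Lib.BlockCoverN.CoverE

open Cfsg MonoidAlgebra
open Cfsg.Agent.Lib.Blocks.Local Cfsg.Agent.Lib.Blocks.Central Cfsg.Agent.Lib.Blocks.Brauer
open Cfsg.Agent.Lib.Blocks.Induced Cfsg.Agent.Lib.Blocks.FMT
open Cfsg.Agent.Lib.Blocks.Defect Cfsg.Agent.Lib.Blocks.Defect2 Cfsg.Agent.Lib.Blocks.Inducing
open Cfsg.Agent.Lib.Blocks.Cover2 Cfsg.Agent.Lib.BlockCoverN.Tau Cfsg.Agent.Lib.Blocks.Main
open Cfsg.Agent.Lib.BlockH.Transport Cfsg.Agent.Lib.BlockH.Defects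
open Cfsg.Agent.Lib.BlockT.Normal Cfsg.Agent.Lib.BlockT.NormalP Cfsg.Agent.Lib.Char.Conj
open Cfsg.Agent.Lib.Char.Complete Cfsg.Agent.Lib.Char.Basic Cfsg.Agent.Lib.Char.Induced
open Cfsg.Agent.Lib.BlockT.SylowIn

universe u

/-- `N_G(Q)`. -/
abbrev HH {G : Type u} [Group G] (Q : Subgroup G) : Subgroup G := Subgroup.normalizer (Q : Set G)

/-- `N ∩ N_G(Q)`, in `N_G(Q)`. -/
abbrev YY {G : Type u} [Group G] (N Q : Subgroup G) : Subgroup (HH Q) := N.subgroupOf (HH Q)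

/-- `N_N(Q)`, in `N`. -/
abbrev LN {G : Type u} [Group G] (N Q : Subgroup G) : Subgroup N :=
  Subgroup.normalizer ((Q.subgroupOf N : Subgroup N) : Set N)

variable {G : Type u} [Group G] [Fintype G] {M : Ideal AlgInt} {p : ℕ} [hp : Fact p.Prime]
  {N : Subgroup G} [hN : N.Normal] [Fintype N] {Q : Subgroup G}


theorem isP_sub (hpg : IsPGroup p Q) : IsPGroup p (Q.subgroupOf N) :=
  hpg.comap_of_injective _ (Subgroup.subtype_injective _)

theorem mem_centralizer_sub (hQN : Q ≤ N) (n : N) :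
    n ∈ Subgroup.centralizer ((Q.subgroupOf N : Subgroup N) : Set N) ↔
      (n : G) ∈ Subgroup.centralizer (Q : Set G) := by
  rw [Subgroup.mem_centralizer_iff, Subgroup.mem_centralizer_iff]
  constructor
  · intro h q hq
    have := h ⟨q, hQN hq⟩ (Subgroup.mem_subgroupOf.mpr hq)
    exact congrArg Subtype.val this
  · intro h m hm
    apply Subtype.ext
    exact h m (Subgroup.mem_subgroupOf.mp hm)

variable [Fintype (IrrCharacter G)] [Fintype (IrrCharacter N)]
  [Fintype (HH Q)] [Fintype (YY N Q)] [Fintype (LN N Q)]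
  [Fintype (IrrCharacter (HH Q))] [Fintype (IrrCharacter (YY N Q))] [Fintype (IrrCharacter (LN N Q))]

/-- The Brauer image of `Ecov`, through a constituent. -/
theorem omegaHom_brOf_Ecov (hP : Cfsg.Agent.Lib.Blocks.Induced.IsBrauerPair p Q (HH Q))
    (hPN : Cfsg.Agent.Lib.Blocks.Induced.IsBrauerPair p (Q.subgroupOf N) (LN N Q)) (hQN : Q ≤ N)
    (B : Set (IrrCharacter G)) (ψ : IrrCharacter (HH Q)) (ξ : IrrCharacter (YY N Q))
    (hcon : classInner (fun n : (YY N Q) => (ψ : (HH Q) → ℂ) n) (ξ : (YY N Q) → ℂ) ≠ 0) :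
    omegaHom ψ (brOf hP (Ecov hN B)) =
      omegaHom (irrMap (tau hQN) ξ) (brOf hPN (idem (covB N B))) := by
  classical
  have hY : (YY N Q).Normal := Subgroup.Normal.subgroupOf hN _
  rw [omegaHom_apply, omegaHom_apply, lin_apply, lin_apply]
  let a : (YY N Q) → ℂ := fun y => (brOf hP (Ecov hN B) : GA (HH Q)).coeff (y : (HH Q))
  have h1 : ∑ h : (HH Q), (brOf hP (Ecov hN B) : GA (HH Q)).coeff h * (ψ : (HH Q) → ℂ) h =
      ∑ y : (YY N Q), a y * (ψ : (HH Q) → ℂ) y := by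
    refine sum_eq_sum_subgroup (YY N Q) _ (fun h hh => ?_)
    rw [coeff_brOf, coeff_res]
    split_ifs
    · have hh' : (h : G) ∉ N := fun h' => hh (Subgroup.mem_subgroupOf.mpr h')
      rw [coeff_Ecov, extendByZero_of_not_mem N _ hh', zero_mul]
    · rw [zero_mul]
  have ha : ∀ (t : (HH Q)) (y : (YY N Q)), a ⟨t * y * t⁻¹, hY.conj_mem y y.2 t⟩ = a y :=
    fun t y => isCentral_of_mem (brOf hP (Ecov hN B)) (y : (HH Q)) t
  have h2 := sum_mul_eq_of_constituent hY ψ.2 ξ.2 hcon a ha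
  have h3 : ∑ l : (LN N Q), (brOf hPN (idem (covB N B)) : GA (LN N Q)).coeff l * (irrMap (tau hQN) ξ : (LN N Q) → ℂ) l =
      ∑ y : (YY N Q), a y * (ξ : (YY N Q) → ℂ) y := by
    symm
    refine Fintype.sum_equiv (tau hQN).toEquiv _ _ fun y => ?_
    have e1 : (irrMap (tau hQN) ξ : (LN N Q) → ℂ) ((tau hQN).toEquiv y) = (ξ : (YY N Q) → ℂ) y :=
      irrMap_apply_map (tau hQN) ξ y
    rw [e1]
    congr 1
    simp only [a]
    rw [coeff_brOf, coeff_brOf]
    by_cases hc : (((y : (HH Q))) : G) ∈ Subgroup.centralizer (Q : Set G)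
    · have hc' : (((tau hQN).toEquiv y : (LN N Q)) : N) ∈
          Subgroup.centralizer ((Q.subgroupOf N : Subgroup N) : Set N) :=
        (mem_centralizer_sub hQN _).mpr hc
      rw [coeff_res_of_mem _ hc, coeff_res_of_mem _ hc', coeff_Ecov, coeff_idem,
        extendByZero_of_mem N _ (show ((y : HH Q) : G) ∈ N from y.2)]
      rfl
    · have hc' : (((tau hQN).toEquiv y : (LN N Q)) : N) ∉
          Subgroup.centralizer ((Q.subgroupOf N : Subgroup N) : Set N) :=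
        fun h => hc ((mem_centralizer_sub hQN _).mp h)
      rw [coeff_res_of_notMem _ hc, coeff_res_of_notMem _ hc']
  have h4 : (irrMap (tau hQN) ξ : (LN N Q) → ℂ) 1 = (ξ : (YY N Q) → ℂ) 1 := by
    rw [irrMap_apply, map_one]
  have h5 : (ψ : (HH Q) → ℂ) 1 = (ψ : (HH Q) → ℂ) ((1 : (YY N Q)) : (HH Q)) := rfl
  rw [h1, h2, h3, h4]

/-- The block of `N` induced by the block of a constituent is covered. -/
theorem subset_covB (hM : IsPModular p M) (hpg : IsPGroup p Q) (hQN : Q ≤ N) {B : Set (IrrCharacter G)}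
    (hB : IsPBlock M B) {c : Set (IrrCharacter (HH Q))} (hind : IsInducedBlock M (HH Q) c B)
    {ψ : IrrCharacter (HH Q)} (hψ : ψ ∈ c) {ξ : IrrCharacter (YY N Q)}
    (hcon : classInner (fun n : (YY N Q) => (ψ : (HH Q) → ℂ) n) (ξ : (YY N Q) → ℂ) ≠ 0)
    {d₁ : Set (IrrCharacter N)}
    (hind₁ : IsInducedBlock M (LN N Q) (blockOf M (irrMap (tau hQN) ξ : (LN N Q) → ℂ)) d₁) : d₁ ⊆ covB N B := by
  classical
  haveI := isPrime_of_pModular hM
  intro θ hθ
  have hP := isBrauerPair_normalizer hpg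
  have hPN := isBrauerPair_normalizer (G := N) (D := Q.subgroupOf N) (isP_sub hpg)
  have hz : Ecov hN B ∈ localCenter M G := fun g => Ecov_mem_local hB g
  have hw : idem (covB N B) ∈ localCenter M N := fun n => memLocalRing_covB hB n
  obtain ⟨χ, hχ⟩ := isPBlock_nonempty hB
  have h1 := indHom_sub_brOf_mem hM hP ψ hz
  have h2 := IsInducedBlock.sub_mem (HH Q) hind hψ hχ hz
  rw [omegaHom_Ecov hχ] at h2
  have h3 := indHom_sub_brOf_mem hM hPN (irrMap (tau hQN) ξ) hw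
  have h4 := IsInducedBlock.sub_mem (LN N Q) hind₁ (mem_blockOf_self _) hθ hw
  rw [← omegaHom_brOf_Ecov hP hPN hQN B ψ ξ hcon] at h3
  rw [omegaHom_idem] at h4
  by_contra hn
  rw [if_neg hn] at h4
  apply one_notMemLocalIdeal (M := M)
  have := memLocalIdeal_add (memLocalIdeal_sub (memLocalIdeal_sub h1 h2) h3) h4
  convert this using 1
  ring

/-- If `c` covers the block `eY`, whose copy in `N_N(Q)` induces `d`, then `B = c^G` covers `d`. -/
theorem covers_of_covers (hM : IsPModular p M) (hpg : IsPGroup p Q) (hQN : Q ≤ N)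
    {B : Set (IrrCharacter G)} (hB : IsPBlock M B) {c : Set (IrrCharacter (HH Q))}
    (hind : IsInducedBlock M (HH Q) c B) {eY : Set (IrrCharacter (YY N Q))} (heY : IsPBlock M eY)
    {d : Set (IrrCharacter N)} (hd : IsPBlock M d)
    (hed : IsInducedBlock M (LN N Q) (blockMap (tau hQN) eY) d)
    (hcov : ∃ ψ ∈ c, ∃ ξ ∈ eY, classInner (fun n : (YY N Q) => (ψ : (HH Q) → ℂ) n) (ξ : (YY N Q) → ℂ) ≠ 0) :
    ∃ χ ∈ B, ∃ θ ∈ d, classInner (fun n : N => (χ : G → ℂ) n) (θ : N → ℂ) ≠ 0 := by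
  classical
  haveI := isPrime_of_pModular hM
  obtain ⟨ψ, hψ, ξ, hξ, hcon⟩ := hcov
  have e : blockOf M (irrMap (tau hQN) ξ : (LN N Q) → ℂ) = blockMap (tau hQN) eY := by
    rw [← blockMap_blockOf, ← isPBlock_eq_blockOf heY hξ]
  rw [← e] at hed
  have hsub := subset_covB hM hpg hQN hB hind hψ hcon hed
  obtain ⟨θ, hθ⟩ := isPBlock_nonempty hd
  obtain ⟨χ, hχ, hne⟩ := hsub hθ
  exact ⟨χ, hχ, θ, hθ, hne⟩

theorem conjIrr_eq_irrMap (t : G) (θ : IrrCharacter N) :
    conjIrr hN t θ = irrMap (conjEquiv hN t).symm θ := by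
  apply Subtype.ext
  funext n
  show conjOn hN t θ n = (θ : N → ℂ) ((conjEquiv hN t).symm.symm n)
  rw [conjOn_eq_comp]
  rfl

theorem conjIrr_image_eq_blockMap (t : G) (S : Set (IrrCharacter N)) :
    conjIrr hN t '' S = blockMap (conjEquiv hN t).symm S := by
  unfold blockMap
  refine Set.image_congr fun θ _ => conjIrr_eq_irrMap t θ

theorem coe_conjEquiv_symm (t : G) (n : N) :
    (((conjEquiv hN t).symm n : N) : G) = t⁻¹ * n * t := by
  have h1 : (conjEquiv hN t ((conjEquiv hN t).symm n) : N) = n := by simp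
  have h2 := congrArg (Subtype.val) h1
  rw [coe_conjEquiv] at h2
  rw [← h2]
  group

/-- If `B = c^G` covers `d`, then `c` covers the block `eY`, whose copy in `N_N(Q)` has defect group `Q` and
induces `d`. -/
theorem covers_of_induced (hM : IsPModular p M) (hpg : IsPGroup p Q) (hQN : Q ≤ N)
    {B : Set (IrrCharacter G)} (hB : IsPBlock M B) {c : Set (IrrCharacter (HH Q))}
    (hind : IsInducedBlock M (HH Q) c B)
    {d : Set (IrrCharacter N)} (hd : IsPBlock M d) (hdQ : IsDefectGroup p M d (Q.subgroupOf N))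
    (hcov : ∃ χ ∈ B, ∃ θ ∈ d, classInner (fun n : N => (χ : G → ℂ) n) (θ : N → ℂ) ≠ 0)
    {eY : Set (IrrCharacter (YY N Q))}
    (hed : IsInducedBlock M (LN N Q) (blockMap (tau hQN) eY) d)
    (heD : IsDefectGroup p M (blockMap (tau hQN) eY) ((Q.subgroupOf N).subgroupOf (LN N Q))) :
    ∃ ψ ∈ c, ∃ ξ ∈ eY, classInner (fun n : (YY N Q) => (ψ : (HH Q) → ℂ) n) (ξ : (YY N Q) → ℂ) ≠ 0 := by
  classical
  haveI := isPrime_of_pModular hM
  have hpN : IsPGroup p (Q.subgroupOf N) := isP_sub hpg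
  have hPN : Cfsg.Agent.Lib.Blocks.Induced.IsBrauerPair p (Q.subgroupOf N) (LN N Q) :=
    isBrauerPair_normalizer hpN
  have hY : (YY N Q).Normal := Subgroup.Normal.subgroupOf hN _
  obtain ⟨ψ, hψ⟩ := isPBlock_nonempty hind.1
  obtain ⟨ξ₀, hcon⟩ := exists_constituent (N := YY N Q) ψ
  refine ⟨ψ, hψ, ?_⟩
  have hf : IsPBlock M (blockOf M (irrMap (tau hQN) ξ₀ : (LN N Q) → ℂ)) := ⟨_, rfl⟩
  obtain ⟨d₁, hind₁⟩ := exists_induced hM hPN hf
  have hsub := subset_covB hM hpg hQN hB hind hψ hcon hind₁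
  obtain ⟨θ₁, hθ₁⟩ := isPBlock_nonempty hind₁.2.1
  obtain ⟨χ₁, hχ₁, hne₁⟩ := hsub hθ₁
  obtain ⟨χ₀, hχ₀, θ₀, hθ₀, hcon₀⟩ := hcov
  obtain ⟨g, θ₂, hθ₂, hg⟩ := mem_orbitSet_of_constituent hN M hB hd hχ₀ hθ₀ hcon₀ hχ₁ hne₁
  have hd₁ : d₁ = conjIrr hN g '' d := by
    rw [conjIrr_image_eq_blockOf hd hθ₂ g, ← hg]
    exact isPBlock_eq_blockOf hind₁.2.1 hθ₁
  -- defect groups of `d₁`
  have hD₂ : IsDefectGroup p M d₁ ((Q.subgroupOf N).map (conjEquiv hN g).symm.toMonoidHom) := by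
    rw [hd₁, conjIrr_image_eq_blockMap]
    exact isDefectGroup_blockMap _ hdQ
  obtain ⟨D₁, hD₁, hQD₁⟩ := exists_defect_ge_of_induced hM hPN hind₁
  obtain ⟨v, hv⟩ := isDefectGroup_exists_conj_eq hM hind₁.2.1 hD₂ hD₁
  have hcardD₁ : Nat.card D₁ = Nat.card (Q.subgroupOf N) := by
    rw [hv, card_conj_eq]
    exact Nat.card_congr (Subgroup.equivMapOfInjective _ _ (conjEquiv hN g).symm.injective).toEquiv.symm
  have hQ'eq : Q.subgroupOf N = D₁ := Subgroup.eq_of_le_of_card_ge hQD₁ hcardD₁.le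
  -- `t = v g⁻¹` normalizes `Q`
  have hmemD : ∀ q' : N, q' ∈ Q.subgroupOf N → ((v : N) : G) * (g⁻¹ * q' * g) * ((v : N) : G)⁻¹ ∈ Q := by
    intro q' hq'
    have h1 : (MulAut.conj v).toMonoidHom ((conjEquiv hN g).symm q') ∈ Q.subgroupOf N := by
      rw [hQ'eq, hv]
      exact ⟨_, ⟨q', hq', rfl⟩, rfl⟩
    rw [Subgroup.mem_subgroupOf] at h1
    simpa [coe_conjEquiv_symm] using h1
  have ht : ((v : N) : G) * g⁻¹ ∈ Subgroup.normalizer (Q : Set G) := by
    rw [Subgroup.mem_normalizer_iff]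
    intro q
    constructor
    · intro hq
      have h1 := hmemD ⟨q, hQN hq⟩ (Subgroup.mem_subgroupOf.mpr hq)
      convert h1 using 1
      group
    · intro hq
      have hq1 : (⟨_, hQN hq⟩ : N) ∈ Q.subgroupOf N := Subgroup.mem_subgroupOf.mpr hq
      rw [hQ'eq, hv] at hq1
      obtain ⟨_, ⟨q', hq', rfl⟩, he⟩ := hq1
      have h2 := congrArg Subtype.val he
      simp only [MulEquiv.toMonoidHom_eq_coe, MonoidHom.coe_coe, MulAut.conj_apply,
        Subgroup.coe_mul, InvMemClass.coe_inv, coe_conjEquiv_symm] at h2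
      have h3 : (q' : G) = q := by
        have e1 : ((v : N) : G) * g⁻¹ * (q' : G) * (((v : N) : G) * g⁻¹)⁻¹ =
            ((v : N) : G) * g⁻¹ * q * (((v : N) : G) * g⁻¹)⁻¹ := by
          rw [← h2]
          group
        simpa using e1
      rw [← h3]
      exact Subgroup.mem_subgroupOf.mp hq'
  -- `h`
  obtain ⟨h, hh, hgh⟩ : ∃ h : G, h ∈ Subgroup.normalizer (Q : Set G) ∧ g = h * (v : N) :=
    ⟨(((v : N) : G) * g⁻¹)⁻¹, (Subgroup.normalizer (Q : Set G)).inv_mem ht, by group⟩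
  have hconjh : conjIrr hN g θ₂ = conjIrr hN h θ₂ := by
    apply Subtype.ext
    funext n
    change (θ₂ : N → ℂ) ⟨g * n * g⁻¹, _⟩ = (θ₂ : N → ℂ) ⟨h * n * h⁻¹, _⟩
    have h1 := isClassFunction_of_isIrrCharacter θ₂.2 (⟨h * n * h⁻¹, hN.conj_mem n n.2 h⟩ : N)
      (⟨h * (v : N) * h⁻¹, hN.conj_mem _ v.2 h⟩ : N)
    rw [← h1]
    refine congrArg _ (Subtype.ext ?_)
    simp only [Subgroup.coe_mul, InvMemClass.coe_inv, hgh]
    group
  let h' : HH Q := ⟨h, hh⟩
  let α : N ≃* N := conjEquiv hN h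
  let β : YY N Q ≃* YY N Q := conjEquiv hY h'
  let αL : LN N Q ≃* LN N Q := (tau hQN).symm.trans (β.trans (tau hQN))
  have hαL : ∀ l : LN N Q, ((αL l : LN N Q) : N) = α l := by
    intro l
    apply Subtype.ext
    show ((β ((tau hQN).symm l) : YY N Q) : HH Q).1 = _
    rw [coe_conjEquiv]
    show (h : G) * (l : N) * h⁻¹ = _
    rw [coe_conjEquiv]
  have hcompat : ∀ k : LN N Q, ((αL.symm k : LN N Q) : N) = α.symm k := by
    intro k
    apply α.injective
    rw [MulEquiv.apply_symm_apply, ← hαL, MulEquiv.apply_symm_apply]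
  have hind₂ := isInducedBlock_map α.symm αL.symm hcompat hed
  have e₁ : blockMap α.symm d = d₁ := by
    rw [hd₁, conjIrr_image_eq_blockOf hd hθ₂ g, hconjh, ← conjIrr_image_eq_blockOf hd hθ₂ h,
      conjIrr_image_eq_blockMap]
  rw [e₁] at hind₂
  have hQα : ∀ l : LN N Q, (((αL l : LN N Q) : N) : G) ∈ Q ↔ ((l : N) : G) ∈ Q := by
    intro l
    rw [hαL, coe_conjEquiv]
    exact ((Subgroup.mem_normalizer_iff.mp hh) _).symm
  have hmap : ((Q.subgroupOf N).subgroupOf (LN N Q)).map αL.symm.toMonoidHom =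
      (Q.subgroupOf N).subgroupOf (LN N Q) := by
    ext l
    constructor
    · rintro ⟨k, hk, rfl⟩
      have hk' : ((k : N) : G) ∈ Q := hk
      have := hQα (αL.symm k)
      rw [MulEquiv.apply_symm_apply] at this
      exact this.mp hk'
    · intro hl
      have hl' : ((l : N) : G) ∈ Q := hl
      refine ⟨αL l, (hQα l).mpr hl', by simp⟩
  have hD₃ := isDefectGroup_blockMap αL.symm heD
  rw [hmap] at hD₃
  have heq := first_main_unique hM hpN hind₂.1 hD₃ hind₂ hind₁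
  have hmem : irrMap (tau hQN) ξ₀ ∈ blockMap αL.symm (blockMap (tau hQN) eY) := by
    rw [heq]
    exact mem_blockOf_self _
  obtain ⟨_, ⟨ξ₁, hξ₁, rfl⟩, he⟩ := hmem
  refine ⟨ξ₁, hξ₁, ?_⟩
  have hξeq : conjIrr hY h' ξ₁ = ξ₀ := by
    apply Subtype.ext
    funext y
    have h1 := congrFun (congrArg Subtype.val he) (tau hQN y)
    show conjOn hY h' ξ₁ y = (ξ₀ : YY N Q → ℂ) y
    rw [conjOn_eq_comp]
    simpa [irrMap_apply, αL] using h1
  rw [← hξeq] at hcon
  rwa [classInner_conjIrr (isClassFunction_of_isIrrCharacter ψ.2)] at hcon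

end Cfsg.Agent.Lib.BlockCoverN.CoverE
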